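import Cfsg.Agent.H14.LeechFrame

/-!
The binary code attached to a frame of a Leech-like lattice is a doubly even self-dual code without
words of weight 4.
-/

set_option autoImplicit false

namespace Cfsg.Agent.H14.Unique

open Finset Matrix

variable {B : Matrix (Fin 24) (Fin 24) ℤ}

theorem zmod_two_cases (z : ZMod 2) : z = 0 ∨ z = 1 := by revert z; decide

/-- The pairing with the words of a code, as a map to the dual. -/
noncomputable def pairing (C : Submodule (ZMod 2) (GolayPt → ZMod 2)) :
    (GolayPt → ZMod 2) →ₗ[ZMod 2] Module.Dual (ZMod 2) C where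
  toFun v :=
    { toFun := fun c => ∑ i, v i * c.1 i
      map_add' := fun c d => by simp [mul_add, sum_add_distrib]
      map_smul' := fun r c => by simp [mul_add, mul_sum, mul_left_comm] }
  map_add' v w := LinearMap.ext fun c => by simp [add_mul, sum_add_distrib]
  map_smul' r v := LinearMap.ext fun c => by simp [mul_add, mul_sum, mul_assoc]

@[simp] theorem pairing_apply (C : Submodule (ZMod 2) (GolayPt → ZMod 2)) (v : GolayPt → ZMod 2)
    (c : C) : pairing C v c = ∑ i, v i * c.1 i := rfl

theorem pairing_surjective (C : Submodule (ZMod 2) (GolayPt → ZMod 2)) :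
    Function.Surjective (pairing C) := fun φ => by
  obtain ⟨ψ, hψ⟩ := LinearMap.exists_extend φ
  refine ⟨fun i => ψ (Pi.single i 1), LinearMap.ext fun c => ?_⟩
  have hc : c.1 = ∑ i, c.1 i • (Pi.single i 1 : GolayPt → ZMod 2) := by
    funext j; simp [Finset.sum_apply, Pi.single_apply]
  rw [pairing_apply, ← hψ, LinearMap.comp_apply, Submodule.subtype_apply]
  conv_rhs => rw [hc, map_sum]
  exact sum_congr rfl fun i _ => by rw [map_smul, smul_eq_mul, mul_comm]

theorem finrank_ker_pairing (C : Submodule (ZMod 2) (GolayPt → ZMod 2)) :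
    Module.finrank (ZMod 2) (LinearMap.ker (pairing C)) + Module.finrank (ZMod 2) C = 24 := by
  have h := LinearMap.finrank_range_add_finrank_ker (pairing C)
  rw [LinearMap.range_eq_top.2 (pairing_surjective C), finrank_top, Subspace.dual_finrank_eq,
    Module.finrank_pi] at h
  simp at h
  omega

/-- A self-orthogonal code of dimension 12 is its own orthogonal. -/
theorem mem_of_orth {C : Submodule (ZMod 2) (GolayPt → ZMod 2)}
    (hdim : Module.finrank (ZMod 2) C = 12) (horth : ∀ v ∈ C, ∀ w ∈ C, ∑ i, v i * w i = 0)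
    {u : GolayPt → ZMod 2} (hu : ∀ c ∈ C, ∑ i, u i * c i = 0) : u ∈ C := by
  have hle : C ≤ LinearMap.ker (pairing C) := fun v hv => LinearMap.mem_ker.2
    (LinearMap.ext fun c => by simpa using horth v hv c.1 c.2)
  have h := finrank_ker_pairing C
  have he := Submodule.eq_of_le_of_finrank_le hle (by omega)
  rw [he]
  exact LinearMap.mem_ker.2 (LinearMap.ext fun c => by simpa using hu c.1 c.2)

/-- Coordinates in a frame. -/
def coord (F : Frame B) : Lam →+ V where
  toFun x p := ip B x (F.vec p)
  map_zero' := by funext p; simp [ip]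
  map_add' x y := by funext p; simp [ip_add_left]

theorem coord_apply (F : Frame B) (x : Lam) (p : GolayPt) : coord F x p = ip B x (F.vec p) := rfl

/-- The image of the lattice in frame coordinates. -/
def img (F : Frame B) : AddSubgroup V := (coord F).range

theorem frame_span (G : Good B) (F : Frame B) (x : Lam) :
    (8 : ℤ) • x = ∑ p, coord F x p • F.vec p := by
  set r := (8 : ℤ) • x - ∑ p, coord F x p • F.vec p with hr
  by_contra hne
  have hr0 : r ≠ 0 := sub_ne_zero.2 hne
  have horth : ∀ q, ip B r (F.vec q) = 0 := fun q => by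
    rw [hr, sub_eq_add_neg, ip_add_left, ip_neg_left, ip_smul_left, ip_sum_left,
      Finset.sum_eq_single q (fun p _ hp => by rw [ip_smul_left, F.orth p q hp, mul_zero])
        (fun h => absurd (mem_univ q) h), ip_smul_left, F.norm, coord_apply]
    ring
  have h := orth_card_le (B := B) (fun o : Option GolayPt => o.elim r F.vec)
    (by
      rintro (_ | p)
      · exact (G.pos r hr0).ne'
      · show ip B (F.vec p) (F.vec p) ≠ 0
        rw [F.norm]; norm_num)
    (by
      rintro (_ | p) (_ | q) hpq
      · exact absurd rfl hpq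
      · exact horth q
      · show ip B (F.vec p) r = 0
        rw [G.ip_comm, horth]
      · exact F.orth p q fun e => hpq (congrArg some e))
  simp at h

theorem dot_coord (G : Good B) (F : Frame B) (x y : Lam) :
    dotInt (coord F x) (coord F y) = 8 * ip B x y := by
  rw [← ip_smul_right B 8 x y, frame_span G F y, ip_sum_right]
  exact sum_congr rfl fun p _ => by rw [ip_smul_right, coord_apply]; ring

theorem sqNorm_coord (G : Good B) (F : Frame B) (x : Lam) :
    sqNorm (coord F x) = 8 * ip B x x := by
  rw [← dot_coord G F x x]; exact sum_congr rfl fun p _ => sq _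

theorem coord_injective (G : Good B) (F : Frame B) : Function.Injective (coord F) := by
  refine (injective_iff_map_eq_zero _).2 fun x h => ?_
  by_contra hne
  have h1 := sqNorm_coord G F x
  rw [h] at h1
  simp [sqNorm] at h1
  have h2 := G.four_le hne
  omega

theorem img_min (G : Good B) (F : Frame B) {v : V} (hv : v ∈ img F) (h0 : v ≠ 0) :
    32 ≤ sqNorm v := by
  obtain ⟨x, rfl⟩ := hv
  rw [sqNorm_coord G F]
  have := G.four_le (x := x) fun e => h0 (by rw [e, map_zero])
  omega

theorem img_sq (G : Good B) (F : Frame B) {v : V} (hv : v ∈ img F) : 16 ∣ sqNorm v := by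
  obtain ⟨x, rfl⟩ := hv
  rw [sqNorm_coord G F]
  obtain ⟨k, hk⟩ := G.even x
  exact ⟨k, by rw [show ip B x x = x ⬝ᵥ (B *ᵥ x) from rfl, hk]; ring⟩

theorem img_dot (G : Good B) (F : Frame B) {v w : V} (hv : v ∈ img F) (hw : w ∈ img F) :
    8 ∣ dotInt v w := by
  obtain ⟨x, rfl⟩ := hv
  obtain ⟨y, rfl⟩ := hw
  exact ⟨_, dot_coord G F x y⟩

theorem coord_vec (F : Frame B) (p : GolayPt) : coord F (F.vec p) = Pi.single p 8 := by
  funext q
  by_cases h : q = p
  · subst h; simp [coord_apply, F.norm]
  · rw [coord_apply, F.orth p q (Ne.symm h), Pi.single_eq_of_ne h]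

theorem four_diff_mem (F : Frame B) (p q : GolayPt) :
    (4 : ℤ) • (Pi.single p (1 : ℤ) - Pi.single q 1 : V) ∈ img F := by
  obtain ⟨z, hz⟩ := red_eq_iff.1 (F.congr p q)
  refine ⟨z, funext fun r => ?_⟩
  have h := congrFun (congrArg (coord F) hz) r
  rw [map_add, map_zsmul, coord_vec, coord_vec] at h
  simp only [Pi.add_apply, Pi.smul_apply, smul_eq_mul, Pi.single_apply, Pi.sub_apply] at h ⊢
  rcases eq_or_ne p q with rfl | hpq
  · by_cases h1 : r = p <;> simp [h1] at h ⊢ <;> omega
  · by_cases h1 : r = p
    · subst h1; simp [hpq] at h ⊢; omega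
    · by_cases h2 : r = q <;> simp [h1, h2, Ne.symm hpq] at h ⊢ <;> omega

/-- Four times an integer vector of even sum lies in the image. -/
theorem four_mem (F : Frame B) (b : V) (hb : 2 ∣ ∑ i, b i) : (4 : ℤ) • b ∈ img F := by
  obtain ⟨m, hm⟩ := hb
  have e : (4 : ℤ) • b = (∑ p, b p • ((4 : ℤ) • (Pi.single p (1 : ℤ) - Pi.single none 1 : V))) +
      m • coord F (F.vec none) := by
    funext r
    rw [coord_vec]
    simp only [Pi.add_apply, Finset.sum_apply, Pi.smul_apply, Pi.sub_apply, smul_eq_mul,
      Pi.single_apply, mul_sub, mul_ite, mul_one, mul_zero, Finset.sum_sub_distrib,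
      Finset.sum_ite_eq, mem_univ, if_true]
    by_cases hr : r = none
    · subst hr
      simp only [if_true, ← Finset.sum_mul, hm]
      ring
    · simp [hr]; ring
  rw [e]
  exact add_mem (sum_mem fun p _ => zsmul_mem (four_diff_mem F p none) _)
    (zsmul_mem (⟨_, rfl⟩ : coord F (F.vec none) ∈ img F) m)

theorem four_not_mem (G : Good B) (F : Frame B) (b : V) (hb : ¬ 2 ∣ ∑ i, b i) :
    (4 : ℤ) • b ∉ img F := by
  intro h
  have h2 := four_mem F (b - Pi.single none 1) (by
    simp only [Pi.sub_apply, Finset.sum_sub_distrib, Finset.sum_pi_single', mem_univ, if_true]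
    omega)
  have h3 := sub_mem h h2
  rw [← smul_sub, sub_sub_cancel] at h3
  have hn : sqNorm ((4 : ℤ) • (Pi.single none 1 : V)) = 16 := by
    simp [sqNorm, Pi.single_apply, ite_pow]
  have := img_min G F h3 (fun e => by
    have := congrFun e none
    simp at this)
  omega

/-- Parities are constant on each vector of the image. -/
theorem img_parity (G : Good B) (F : Frame B) {v : V} (hv : v ∈ img F) (p q : GolayPt) :
    2 ∣ v p - v q := by
  have h := img_dot G F hv (four_diff_mem F p q)
  have e : dotInt v ((4 : ℤ) • (Pi.single p (1 : ℤ) - Pi.single q 1 : V)) = 4 * (v p - v q) := by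
    simp [dotInt, Pi.single_apply, mul_sub, mul_ite, Finset.sum_sub_distrib]
    ring
  rw [e] at h
  omega

/-- The code of the halved even vectors. -/
def code (F : Frame B) : Submodule (ZMod 2) (GolayPt → ZMod 2) where
  carrier := {c | ∃ a : V, (2 : ℤ) • a ∈ img F ∧ par a = c}
  zero_mem' := ⟨0, by simp, par_zero⟩
  add_mem' := by
    rintro _ _ ⟨a, ha, rfl⟩ ⟨b, hb, rfl⟩
    exact ⟨a + b, by rw [smul_add]; exact add_mem ha hb, par_add a b⟩
  smul_mem' := by
    intro r c hc
    rcases zmod_two_cases r with rfl | rfl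
    · exact ⟨0, by simp, by simp [par_zero]⟩
    · simpa using hc

theorem code_orth (G : Good B) (F : Frame B) {v w : GolayPt → ZMod 2} (hv : v ∈ code F)
    (hw : w ∈ code F) : ∑ i, v i * w i = 0 := by
  obtain ⟨a, ha, rfl⟩ := hv
  obtain ⟨b, hb, rfl⟩ := hw
  have h := img_dot G F ha hb
  have e : dotInt ((2 : ℤ) • a) ((2 : ℤ) • b) = 4 * ∑ i, a i * b i := by
    rw [mul_sum]; exact sum_congr rfl fun i _ => by simp; ring
  rw [e] at h
  have h2 : (2 : ℤ) ∣ ∑ i, a i * b i := by omega
  calc ∑ i, par a i * par b i = ((∑ i, a i * b i : ℤ) : ZMod 2) := by push_cast; rfl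
    _ = 0 := (ZMod.intCast_zmod_eq_zero_iff_dvd _ 2).2 (by exact_mod_cast h2)

theorem sq_mod_four (z : ℤ) : z ^ 2 % 4 = if z % 2 = 1 then 1 else 0 := by
  rcases Int.even_or_odd z with ⟨k, rfl⟩ | ⟨k, rfl⟩
  · rw [if_neg (by omega), show (k + k) ^ 2 = 4 * (k * k) by ring]; omega
  · rw [if_pos (by omega), show (2 * k + 1) ^ 2 = 4 * (k * k + k) + 1 by ring]; omega

theorem sq_sum_mod (a : V) : (∑ i, a i ^ 2) % 4 = (hammingNorm (par a) : ℤ) % 4 := by
  rw [Finset.sum_int_mod, hammingNorm_par, Finset.card_filter, Nat.cast_sum]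
  congr 1
  refine sum_congr rfl fun i _ => ?_
  rw [sq_mod_four]
  split <;> simp

theorem sum_mod_two (a : V) : (∑ i, a i) % 2 = (hammingNorm (par a) : ℤ) % 2 := by
  rw [Finset.sum_int_mod, hammingNorm_par, Finset.card_filter, Nat.cast_sum]
  congr 1
  refine sum_congr rfl fun i _ => ?_
  split <;> simp <;> omega

theorem code_four_dvd (G : Good B) (F : Frame B) {c : GolayPt → ZMod 2} (hc : c ∈ code F) :
    4 ∣ hammingNorm c := by
  obtain ⟨a, ha, rfl⟩ := hc
  have h := img_sq G F ha
  have e : sqNorm ((2 : ℤ) • a) = 4 * ∑ i, a i ^ 2 := by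
    rw [mul_sum]; exact sum_congr rfl fun i _ => by simp; ring
  rw [e] at h
  have := sq_sum_mod a
  omega

theorem code_no_four (G : Good B) (F : Frame B) {c : GolayPt → ZMod 2} (hc : c ∈ code F) :
    hammingNorm c ≠ 4 := by
  intro h4
  obtain ⟨a, ha, rfl⟩ := hc
  set T := univ.filter fun i => a i % 2 = 1 with hT
  have hTc : T.card = 4 := by rw [hT, ← hammingNorm_par, h4]
  obtain ⟨q, hq⟩ := card_pos.1 (by omega : 0 < T.card)
  let b : Bool → V := fun s i => if i ∈ T then (if i = q ∧ s = true then -1 else 1) else 0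
  have hb : ∀ s i, 2 ∣ a i - b s i := fun s i => by
    simp only [b]
    by_cases hi : i ∈ T
    · have : a i % 2 = 1 := (Finset.mem_filter.1 hi).2
      rw [if_pos hi]; split <;> omega
    · have : ¬ a i % 2 = 1 := fun e => hi (Finset.mem_filter.2 ⟨mem_univ _, e⟩)
      rw [if_neg hi]; omega
  choose k hk using hb
  have hsum : ∀ s, ∑ i, b s i = if s = true then 2 else 4 := fun s => by
    simp only [b, sum_ite_mem, univ_inter]
    rcases s with _ | _
    · simp [hTc]
    · rw [← add_sum_erase _ _ hq]
      simp [sum_congr rfl (fun i (hi : i ∈ T.erase q) =>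
        if_neg (show ¬ (i = q) from (mem_erase.1 hi).1)), card_erase_of_mem hq, hTc]
  obtain ⟨s, hs⟩ : ∃ s, 2 ∣ ∑ i, k s i := by
    have h1 : ∀ s, ∑ i, a i = (∑ i, b s i) + 2 * ∑ i, k s i := fun s => by
      rw [mul_sum, ← sum_add_distrib]; exact sum_congr rfl fun i _ => by linarith [hk s i]
    have e1 := h1 true
    have e2 := h1 false
    rw [hsum] at e1 e2
    simp only [if_true, Bool.false_eq_true, if_false] at e1 e2
    by_cases h : (2 : ℤ) ∣ ∑ i, k true i
    · exact ⟨true, h⟩
    · exact ⟨false, by omega⟩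
  have hbm : (2 : ℤ) • b s ∈ img F := by
    have e : (2 : ℤ) • b s = (2 : ℤ) • a - (4 : ℤ) • k s := by
      funext i; simp; linarith [hk s i]
    rw [e]
    exact sub_mem ha (four_mem F _ hs)
  have hn : sqNorm ((2 : ℤ) • b s) = 16 := by
    have h1 : ∀ i, ((2 : ℤ) • b s) i ^ 2 = if i ∈ T then 4 else 0 := fun i => by
      simp only [b, Pi.smul_apply, smul_eq_mul]
      split
      · split <;> norm_num
      · norm_num
    unfold sqNorm
    rw [sum_congr rfl fun i _ => h1 i, sum_ite_mem, univ_inter, sum_const, hTc]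
    norm_num
  have := img_min G F hbm (fun e => by rw [e] at hn; simp [sqNorm] at hn)
  omega

theorem code_min (G : Good B) (F : Frame B) {c : GolayPt → ZMod 2} (hc : c ∈ code F) (h0 : c ≠ 0) :
    8 ≤ hammingNorm c := by
  have h1 := code_four_dvd G F hc
  have h2 := code_no_four G F hc
  have h3 := hammingNorm_ne_zero_iff.2 h0
  omega

theorem code_finrank_le (G : Good B) (F : Frame B) : Module.finrank (ZMod 2) (code F) ≤ 12 := by
  have h := finrank_ker_pairing (code F)
  have hle : code F ≤ LinearMap.ker (pairing (code F)) := fun v hv => LinearMap.mem_ker.2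
    (LinearMap.ext fun c => by simpa using code_orth G F hv c.2)
  have := Submodule.finrank_mono hle
  omega

theorem card_code (F : Frame B) :
    Nat.card (code F) = 2 ^ Module.finrank (ZMod 2) (code F) := by
  rw [Module.natCard_eq_pow_finrank (K := ZMod 2), Nat.card_zmod]

open Classical in
/-- The words of weight 8 are at most 759: five points lie in at most one of them. -/
theorem card_eight_le (G : Good B) (F : Frame B) :
    (univ.filter fun c : GolayPt → ZMod 2 => c ∈ code F ∧ hammingNorm c = 8).card ≤ 759 := by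
  set W := univ.filter fun c : GolayPt → ZMod 2 => c ∈ code F ∧ hammingNorm c = 8 with hW
  let su : (GolayPt → ZMod 2) → Finset GolayPt := fun c => univ.filter fun i => c i ≠ 0
  have hdisj : (W : Set (GolayPt → ZMod 2)).PairwiseDisjoint fun c => (su c).powersetCard 5 := by
    intro c hc d hd hne
    rw [Finset.mem_coe, hW, Finset.mem_filter] at hc hd
    rw [Function.onFun, Finset.disjoint_left]
    intro s hs hs'
    rw [mem_powersetCard] at hs hs'
    have h8 := code_min G F (add_mem hc.2.1 hd.2.1) fun e => hne (by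
      funext i
      have := congrFun e i
      simp only [Pi.add_apply, Pi.zero_apply] at this
      exact (by decide : ∀ z w : ZMod 2, z + w = 0 → z = w) _ _ this)
    have hsub : su (c + d) ⊆ (su c ∪ su d) \ s := fun i hi => by
      simp only [su, Finset.mem_filter, Finset.mem_sdiff, Finset.mem_union, mem_univ, true_and,
        Pi.add_apply] at hi ⊢
      refine ⟨?_, fun his => hi ?_⟩
      · by_contra hno
        push Not at hno
        exact hi (by rw [hno.1, hno.2, add_zero])
      · have a := (Finset.mem_filter.1 (hs.1 his)).2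
        have b := (Finset.mem_filter.1 (hs'.1 his)).2
        exact (by decide : ∀ z w : ZMod 2, z ≠ 0 → w ≠ 0 → z + w = 0) _ _ a b
    have h1 := card_le_card hsub
    have h2 := card_union_add_card_inter (su c) (su d)
    have h3 : s ⊆ su c ∩ su d := subset_inter hs.1 hs'.1
    have h4 := card_le_card h3
    rw [card_sdiff_of_subset (h3.trans (inter_subset_union))] at h1
    have e1 : (su c).card = 8 := hc.2.2
    have e2 : (su d).card = 8 := hd.2.2
    have e3 : (su (c + d)).card = hammingNorm (c + d) := rfl
    omega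
  have h := card_biUnion hdisj
  rw [sum_const_nat (m := 56) fun c hc => by
    rw [card_powersetCard, show (su c).card = 8 from ((Finset.mem_filter.1 hc).2).2]; rfl] at h
  have hle : (W.biUnion fun c => (su c).powersetCard 5).card ≤
      ((univ : Finset GolayPt).powersetCard 5).card :=
    card_le_card (biUnion_subset.2 fun c _ => powersetCard_mono (subset_univ _))
  rw [h, card_powersetCard, card_univ, show Fintype.card GolayPt = 24 by decide,
    show Nat.choose 24 5 = 42504 by decide] at hle
  omega

end Cfsg.Agent.H14.Unique
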