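import Cfsg.Agent.H14.LeechBasic

/-!
Frames in an even rootless lattice of rank 24 with the theta coefficients of the Leech lattice: 24
pairwise orthogonal vectors of norm 8 congruent modulo two.
-/

set_option autoImplicit false

namespace Cfsg.Agent.H14.Unique

open Finset Matrix

/-- The coordinate space of the abstract lattice. -/
abbrev Lam : Type := Fin 24 → ℤ

/-- The hypotheses on the Gram matrix. -/
structure Good (B : Matrix (Fin 24) (Fin 24) ℤ) : Prop where
  symm : B.IsSymm
  pos : ∀ x : Lam, x ≠ 0 → 0 < x ⬝ᵥ (B *ᵥ x)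
  even : ∀ x : Lam, (2 : ℤ) ∣ x ⬝ᵥ (B *ᵥ x)
  noRoot : ∀ x : Lam, x ⬝ᵥ (B *ᵥ x) ≠ 2
  c4 : {x : Lam | x ⬝ᵥ (B *ᵥ x) = 4}.ncard = 196560
  c6 : {x : Lam | x ⬝ᵥ (B *ᵥ x) = 6}.ncard = 16773120
  c8 : {x : Lam | x ⬝ᵥ (B *ᵥ x) = 8}.ncard = 398034000

variable (B : Matrix (Fin 24) (Fin 24) ℤ)

/-- The inner product. -/
def ip (x y : Lam) : ℤ := x ⬝ᵥ (B *ᵥ y)

theorem ip_add_left (x y z : Lam) : ip B (x + y) z = ip B x z + ip B y z := add_dotProduct ..

theorem ip_add_right (x y z : Lam) : ip B x (y + z) = ip B x y + ip B x z := by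
  simp [ip, mulVec_add, dotProduct_add]

theorem ip_smul_left (c : ℤ) (x y : Lam) : ip B (c • x) y = c * ip B x y := by
  rw [ip, ip, smul_dotProduct, smul_eq_mul]

theorem ip_smul_right (c : ℤ) (x y : Lam) : ip B x (c • y) = c * ip B x y := by
  rw [ip, ip, mulVec_smul, dotProduct_smul, smul_eq_mul]

theorem ip_neg_right (x y : Lam) : ip B x (-y) = -ip B x y := by
  simp [ip, mulVec_neg, dotProduct_neg]

theorem ip_neg_left (x y : Lam) : ip B (-x) y = -ip B x y := by
  simp [ip, neg_dotProduct]

theorem ip_sum_right {ι : Type*} (s : Finset ι) (x : Lam) (y : ι → Lam) :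
    ip B x (∑ i ∈ s, y i) = ∑ i ∈ s, ip B x (y i) := by
  simp [ip, mulVec_sum, dotProduct_sum]

theorem ip_sum_left {ι : Type*} (s : Finset ι) (x : ι → Lam) (y : Lam) :
    ip B (∑ i ∈ s, x i) y = ∑ i ∈ s, ip B (x i) y := by
  simp [ip, sum_dotProduct]

variable {B}

theorem Good.ip_comm (G : Good B) (x y : Lam) : ip B x y = ip B y x := by
  rw [ip, dotProduct_mulVec, ← mulVec_transpose, G.symm.eq, dotProduct_comm]; rfl

theorem Good.four_le (G : Good B) {x : Lam} (h : x ≠ 0) : 4 ≤ ip B x x := by
  have h1 := G.pos x h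
  have h2 := G.even x
  have h3 := G.noRoot x
  show 4 ≤ x ⬝ᵥ (B *ᵥ x)
  omega

/-- Pairwise orthogonal vectors of nonzero norm are at most 24. -/
theorem orth_card_le {ι : Type*} [Fintype ι] (v : ι → Lam) (hn : ∀ i, ip B (v i) (v i) ≠ 0)
    (ho : ∀ i j, i ≠ j → ip B (v i) (v j) = 0) : Fintype.card ι ≤ 24 := by
  have hli : LinearIndependent ℤ v := Fintype.linearIndependent_iff.2 fun g hg i => by
    have h := congrArg (fun y => ip B y (v i)) hg
    simp only [ip_sum_left, ip_smul_left] at h
    rw [Finset.sum_eq_single i (fun j _ hj => by rw [ho j i hj, mul_zero])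
      (fun h => absurd (mem_univ i) h)] at h
    simp only [ip, zero_dotProduct] at h
    exact (mul_eq_zero.1 h).resolve_right (hn i)
  simpa using hli.fintype_card_le_finrank

/-- Reduction modulo two. -/
def red (x : Lam) : Fin 24 → ZMod 2 := fun i => (x i : ZMod 2)

theorem red_eq_iff {x y : Lam} : red x = red y ↔ ∃ z : Lam, x = y + (2 : ℤ) • z := by
  constructor
  · intro h
    have hd : ∀ i, (2 : ℤ) ∣ x i - y i := fun i => by
      have := congrFun h i
      simp only [red, ZMod.intCast_eq_intCast_iff'] at this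
      push_cast at this
      omega
    choose z hz using hd
    exact ⟨z, funext fun i => by simp; linarith [hz i]⟩
  · rintro ⟨z, rfl⟩
    funext i
    simp [red, (by decide : (2 : ZMod 2) = 0)]

theorem short_congr (G : Good B) {x y : Lam} (hx : ip B x x ≤ 8) (hy : ip B y y ≤ 8)
    (h : red x = red y) :
    x = y ∨ x = -y ∨ (ip B x x = 8 ∧ ip B y y = 8 ∧ ip B x y = 0) := by
  obtain ⟨z, rfl⟩ := red_eq_iff.1 h
  by_cases hz : z = 0
  · left; simp [hz]
  by_cases hw : y + z = 0
  · right; left
    rw [eq_neg_of_add_eq_zero_right hw]; funext i; simp; ring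
  right; right
  have h1 := G.four_le hz
  have h2 := G.four_le hw
  simp only [ip_add_left, ip_add_right, ip_smul_left, ip_smul_right] at hx h2 ⊢
  rw [G.ip_comm z y] at hx h2 ⊢
  omega

/-- A frame: orthogonal norm 8 vectors, congruent modulo two, indexed by the 24 points. -/
structure Frame (B : Matrix (Fin 24) (Fin 24) ℤ) where
  /-- The vectors. -/
  vec : GolayPt → Lam
  norm : ∀ p, ip B (vec p) (vec p) = 8
  orth : ∀ p q, p ≠ q → ip B (vec p) (vec q) = 0
  congr : ∀ p q, red (vec p) = red (vec q)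

/-- The vectors of one norm, as a finset. -/
noncomputable def level (B : Matrix (Fin 24) (Fin 24) ℤ) (k : ℤ)
    (h : {x : Lam | ip B x x = k}.Finite) : Finset Lam := h.toFinset

theorem finite_of_ncard {α : Type*} {s : Set α} {n : ℕ} (h : s.ncard = n) (hn : n ≠ 0) : s.Finite :=
  Set.finite_of_ncard_ne_zero (h ▸ hn)

theorem card_image_red_pair (G : Good B) {k : ℤ} (hk0 : 0 < k) (hk8 : k < 8) (S : Finset Lam)
    (hS : ∀ x, x ∈ S ↔ ip B x x = k) : (S.image red).card * 2 = S.card := by
  classical
  rw [card_eq_sum_card_image red S, sum_const_nat (m := 2)]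
  intro c hc
  obtain ⟨x, hx, rfl⟩ := Finset.mem_image.1 hc
  have hxk := (hS x).1 hx
  have hne : x ≠ -x := by
    intro e
    have : x = 0 := funext fun i => by
      have := congrFun e i
      simp only [Pi.neg_apply, Pi.zero_apply] at *
      omega
    rw [this] at hxk
    simp [ip] at hxk
    omega
  rw [show S.filter (fun y => red y = red x) = {x, -x} from ?_, card_pair hne]
  ext y
  simp only [Finset.mem_filter, hS, Finset.mem_insert, Finset.mem_singleton]
  constructor
  · rintro ⟨hy, e⟩
    rcases short_congr G (by omega) (by omega) e with h | h | h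
    · exact Or.inl h
    · exact Or.inr h
    · omega
  · rintro (rfl | rfl)
    · exact ⟨hxk, rfl⟩
    · refine ⟨by rw [ip_neg_left, ip_neg_right, neg_neg, hxk], funext fun i => ?_⟩
      simp [red, ZMod.neg_eq_self_mod_two]

theorem classes_le (G : Good B) (S : Finset Lam) (hS : ∀ x, x ∈ S ↔ ip B x x = 8) :
    (S.image red).card ≤ 8292375 := by
  classical
  set S4 := (finite_of_ncard G.c4 (by norm_num)).toFinset
  set S6 := (finite_of_ncard G.c6 (by norm_num)).toFinset
  have m4 : ∀ x, x ∈ S4 ↔ ip B x x = 4 := fun x => by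
    simp only [S4, Set.Finite.mem_toFinset]; rfl
  have m6 : ∀ x, x ∈ S6 ↔ ip B x x = 6 := fun x => by
    simp only [S6, Set.Finite.mem_toFinset]; rfl
  have n4 : S4.card = 196560 := (Set.ncard_eq_toFinset_card _ (finite_of_ncard G.c4 (by norm_num))).symm.trans G.c4
  have n6 : S6.card = 16773120 := (Set.ncard_eq_toFinset_card _ (finite_of_ncard G.c6 (by norm_num))).symm.trans G.c6
  have p4 := card_image_red_pair G (k := 4) (by norm_num) (by norm_num) S4 m4
  have p6 := card_image_red_pair G (k := 6) (by norm_num) (by norm_num) S6 m6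
  have key : ∀ x y : Lam, ip B x x ≤ 8 → ip B y y ≤ 8 → red x = red y → ip B x x = ip B y y := by
    intro x y hx hy h
    rcases short_congr G hx hy h with e | e | ⟨e1, e2, -⟩
    · rw [e]
    · rw [e, ip_neg_left, ip_neg_right, neg_neg]
    · rw [e1, e2]
  have z0 : ip B (0 : Lam) 0 = 0 := by simp [ip]
  have d1 : Disjoint ({red 0} : Finset (Fin 24 → ZMod 2)) (S4.image red) := by
    rw [Finset.disjoint_singleton_left, Finset.mem_image]
    rintro ⟨x, hx, e⟩
    have := key x 0 (by rw [(m4 x).1 hx]; norm_num) (by rw [z0]; norm_num) e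
    rw [(m4 x).1 hx, z0] at this; omega
  have d2 : Disjoint ({red 0} ∪ S4.image red) (S6.image red) := by
    rw [Finset.disjoint_left]
    intro c hc hc'
    obtain ⟨y, hy, rfl⟩ := Finset.mem_image.1 hc'
    rcases Finset.mem_union.1 hc with h | h
    · have := key y 0 (by rw [(m6 y).1 hy]; norm_num) (by rw [z0]; norm_num) (Finset.mem_singleton.1 h)
      rw [(m6 y).1 hy, z0] at this; omega
    · obtain ⟨x, hx, e⟩ := Finset.mem_image.1 h
      have := key x y (by rw [(m4 x).1 hx]; norm_num) (by rw [(m6 y).1 hy]; norm_num) e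
      rw [(m4 x).1 hx, (m6 y).1 hy] at this; omega
  have d3 : Disjoint ({red 0} ∪ S4.image red ∪ S6.image red) (S.image red) := by
    rw [Finset.disjoint_left]
    intro c hc hc'
    obtain ⟨y, hy, rfl⟩ := Finset.mem_image.1 hc'
    have hy8 : ip B y y ≤ 8 := le_of_eq ((hS y).1 hy)
    rcases Finset.mem_union.1 hc with h | h
    · rcases Finset.mem_union.1 h with h | h
      · have := key y 0 hy8 (by rw [z0]; norm_num) (Finset.mem_singleton.1 h)
        rw [(hS y).1 hy, z0] at this; omega
      · obtain ⟨x, hx, e⟩ := Finset.mem_image.1 h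
        have := key x y (by rw [(m4 x).1 hx]; norm_num) hy8 e
        rw [(m4 x).1 hx, (hS y).1 hy] at this; omega
    · obtain ⟨x, hx, e⟩ := Finset.mem_image.1 h
      have := key x y (by rw [(m6 x).1 hx]; norm_num) hy8 e
      rw [(m6 x).1 hx, (hS y).1 hy] at this; omega
  have htot := card_le_univ ({red 0} ∪ S4.image red ∪ S6.image red ∪ S.image red)
  rw [card_union_of_disjoint d3, card_union_of_disjoint d2, card_union_of_disjoint d1,
    card_singleton, Fintype.card_fun, ZMod.card, Fintype.card_fin] at htot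
  norm_num at htot
  omega

theorem card_norm_eight (G : Good B) (S : Finset Lam) (hS : ∀ x, x ∈ S ↔ ip B x x = 8) :
    S.card = 398034000 := by
  have h : {x : Lam | x ⬝ᵥ (B *ᵥ x) = 8} = (S : Set Lam) :=
    Set.ext fun x => ((hS x).trans Iff.rfl).symm
  have h8 := G.c8
  rwa [h, Set.ncard_coe_finset] at h8

theorem exists_big_fibre (G : Good B) :
    ∃ F : Finset Lam, (∀ x ∈ F, ip B x x = 8) ∧ (∀ x ∈ F, ∀ y ∈ F, red x = red y) ∧
      48 ≤ F.card := by
  classical
  set S8 := (finite_of_ncard G.c8 (by norm_num)).toFinset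
  have m8 : ∀ x, x ∈ S8 ↔ ip B x x = 8 := fun x => by
    simp only [S8, Set.Finite.mem_toFinset]; rfl
  by_contra hno
  push Not at hno
  have p8 : S8.card ≤ (S8.image red).card * 47 := by
    rw [mul_comm]
    refine card_le_mul_card_image _ 47 fun c _ => ?_
    have := hno (S8.filter fun x => red x = c) (fun x hx => (m8 x).1 (Finset.mem_filter.1 hx).1)
      (fun x hx y hy => (Finset.mem_filter.1 hx).2.trans (Finset.mem_filter.1 hy).2.symm)
    omega
  have := card_norm_eight G S8 m8
  have := classes_le G S8 m8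
  omega

/-- A frame exists. -/
theorem exists_frame (G : Good B) : Nonempty (Frame B) := by
  classical
  obtain ⟨F, hn, hred, hcard⟩ := exists_big_fibre G
  set P := F.image fun x => ({x, -x} : Finset Lam) with hP
  have hfib : F.card ≤ P.card * 2 := by
    rw [mul_comm]
    refine card_le_mul_card_image _ 2 fun s hs => ?_
    obtain ⟨x, -, rfl⟩ := Finset.mem_image.1 hs
    refine (card_le_card (t := {x, -x}) fun y hy => ?_).trans card_le_two
    rw [← (Finset.mem_filter.1 hy).2]
    exact Finset.mem_insert_self _ _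
  have hsel : ∀ s : ↥P, ∃ x ∈ F, ({x, -x} : Finset Lam) = s.1 := fun s =>
    Finset.mem_image.1 s.2
  choose g hgF hg using hsel
  have horth : ∀ s t : ↥P, s ≠ t → ip B (g s) (g t) = 0 := by
    intro s t hst
    rcases short_congr G (le_of_eq (hn _ (hgF s))) (le_of_eq (hn _ (hgF t)))
      (hred _ (hgF s) _ (hgF t)) with h | h | h
    · exact absurd (Subtype.ext (by rw [← hg s, ← hg t, h])) hst
    · exact absurd (Subtype.ext (by rw [← hg s, ← hg t, h, neg_neg, Finset.pair_comm])) hst
    · exact h.2.2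
  have hle := orth_card_le g (fun s => by rw [hn _ (hgF s)]; norm_num) horth
  rw [Fintype.card_coe] at hle
  have e : GolayPt ≃ ↥P := Fintype.equivOfCardEq (by rw [Fintype.card_coe]; simp; omega)
  exact ⟨⟨fun p => g (e p), fun p => hn _ (hgF _),
    fun p q h => horth _ _ fun he => h (e.injective he),
    fun p q => hred _ (hgF _) _ (hgF _)⟩⟩

/-- A congruence class contains at most 48 vectors of norm 8. -/
theorem fibre_le (G : Good B) (F : Finset Lam) (hn : ∀ x ∈ F, ip B x x = 8)
    (hred : ∀ x ∈ F, ∀ y ∈ F, red x = red y) : F.card ≤ 48 := by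
  classical
  set P := F.image fun x => ({x, -x} : Finset Lam) with hP
  have hfib : F.card ≤ P.card * 2 := by
    rw [mul_comm]
    refine card_le_mul_card_image _ 2 fun s hs => ?_
    obtain ⟨x, -, rfl⟩ := Finset.mem_image.1 hs
    refine (card_le_card (t := {x, -x}) fun y hy => ?_).trans card_le_two
    rw [← (Finset.mem_filter.1 hy).2]
    exact Finset.mem_insert_self _ _
  have hsel : ∀ s : ↥P, ∃ x ∈ F, ({x, -x} : Finset Lam) = s.1 := fun s =>
    Finset.mem_image.1 s.2
  choose g hgF hg using hsel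
  have horth : ∀ s t : ↥P, s ≠ t → ip B (g s) (g t) = 0 := by
    intro s t hst
    rcases short_congr G (le_of_eq (hn _ (hgF s))) (le_of_eq (hn _ (hgF t)))
      (hred _ (hgF s) _ (hgF t)) with h | h | h
    · exact absurd (Subtype.ext (by rw [← hg s, ← hg t, h])) hst
    · exact absurd (Subtype.ext (by rw [← hg s, ← hg t, h, neg_neg, Finset.pair_comm])) hst
    · exact h.2.2
  have hle := orth_card_le g (fun s => by rw [hn _ (hgF s)]; norm_num) horth
  rw [Fintype.card_coe] at hle
  omega

/-- Every congruence class of a vector of norm 8 contains exactly 48 of them. -/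
theorem fibre_eq (G : Good B) {x : Lam} (hx : ip B x x = 8) :
    {y : Lam | ip B y y = 8 ∧ red y = red x}.ncard = 48 := by
  classical
  set S8 := (finite_of_ncard G.c8 (by norm_num)).toFinset
  have m8 : ∀ x, x ∈ S8 ↔ ip B x x = 8 := fun x => by
    simp only [S8, Set.Finite.mem_toFinset]; rfl
  have hle : ∀ c ∈ S8.image red, (S8.filter fun y => red y = c).card ≤ 48 := fun c _ =>
    fibre_le G _ (fun y hy => (m8 y).1 (Finset.mem_filter.1 hy).1)
      (fun y hy z hz => (Finset.mem_filter.1 hy).2.trans (Finset.mem_filter.1 hz).2.symm)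
  have htot : ∑ c ∈ S8.image red, 48 ≤ ∑ c ∈ S8.image red, (S8.filter fun y => red y = c).card := by
    rw [← card_eq_sum_card_image, sum_const, smul_eq_mul, card_norm_eight G S8 m8]
    have := classes_le G S8 m8
    omega
  have heq := (sum_eq_sum_iff_of_le hle).1 (le_antisymm (sum_le_sum hle) htot) (red x)
    (Finset.mem_image.2 ⟨x, (m8 x).2 hx, rfl⟩)
  rw [show {y : Lam | ip B y y = 8 ∧ red y = red x} = (S8.filter fun y => red y = red x : Finset Lam)
    from Set.ext fun y => by simp [m8], Set.ncard_coe_finset, heq]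

end Cfsg.Agent.H14.Unique
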