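import Cfsg.Agent.H14.LeechCount

/-! The four shapes of vectors of squared length 48. -/

namespace Cfsg.Agent.H14

open Finset

/-- An odd vector cannot have two large coordinates, one of absolute value at least 5. -/
theorem no_five_three {x : V} (hn : sqNorm x = 48) (ho : ∀ i, x i % 2 = 1) {p q : GolayPt}
    (hpq : p ≠ q) (hp : 25 ≤ x p ^ 2) : x q = 1 ∨ x q = -1 := by
  have h3 : x p ^ 2 + ∑ j ∈ univ.erase p, x j ^ 2 = 48 := by
    rw [← hn]; exact add_sum_erase univ (fun j => x j ^ 2) (mem_univ p)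
  have hqm : q ∈ univ.erase p := mem_erase.2 ⟨Ne.symm hpq, mem_univ _⟩
  have h5' := add_sum_erase _ (fun j => x j ^ 2) hqm
  have hc : ((univ.erase p).erase q).card = 22 := by
    rw [card_erase_of_mem hqm, card_erase_of_mem (mem_univ p)]; simp
  have h1 : (22 : ℤ) ≤ ∑ j ∈ (univ.erase p).erase q, x j ^ 2 := by
    calc (22 : ℤ) = ∑ _j ∈ (univ.erase p).erase q, 1 := by rw [sum_const, hc]; norm_num
      _ ≤ _ := sum_le_sum fun j _ => by
        have : x j ≠ 0 := by have := ho j; omega
        nlinarith [Int.one_le_abs this, sq_abs (x j)]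
  have hle : x q ^ 2 ≤ 1 := by linarith
  have : -2 < x q ∧ x q < 2 := by constructor <;> nlinarith
  have := ho q
  omega

theorem even_values48 {x : V} (hx : IsLeech x) (hn : sqNorm x = 48) (he : ∀ i, x i % 2 = 0)
    (j : GolayPt) : x j = 0 ∨ x j = 2 ∨ x j = -2 ∨ x j = 4 ∨ x j = -4 := by
  have := he j
  by_cases h0 : x j % 4 = 0
  · have := sq_le_sqNorm x j
    have : -7 < x j ∧ x j < 7 := by constructor <;> nlinarith
    omega
  · have := sq_add_28_le x hx he h0
    have : -5 < x j ∧ x j < 5 := by constructor <;> nlinarith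
    omega

/-- Allowed values in `(2^12, 0^12)`. -/
def valSmall (v : ℤ) : Bool := decide (v = 0 ∨ v = 2 ∨ v = -2)

/-- Allowed values in `(3^3, 1^21)`. -/
def valThree (v : ℤ) : Bool := decide (v = 1 ∨ v = -1 ∨ v = 3 ∨ v = -3)

/-- Allowed values in `(5, 1^23)`. -/
def valFive (v : ℤ) : Bool := decide (v = 1 ∨ v = -1 ∨ v = 5 ∨ v = -5)

theorem ncard48_small :
    {x : V | x ∈ leechLattice ∧ sqNorm x = 48 ∧ ∀ i, x i = 0 ∨ x i = 2 ∨ x i = -2}.ncard =
      5275648 := by
  have h : {x : V | x ∈ leechLattice ∧ sqNorm x = 48 ∧ ∀ i, x i = 0 ∨ x i = 2 ∨ x i = -2} =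
      {x : V | IsLeech x ∧ sqNorm x = (48 : ℕ) ∧ (∀ i, x i % 2 = 0) ∧
        ∀ i, valSmall (x i) = true} := by
    ext x
    simp only [Set.mem_setOf_eq, mem_leechLattice_iff, valSmall, decide_eq_true_eq, Nat.cast_ofNat]
    constructor
    · rintro ⟨h1, h2, h3⟩
      exact ⟨h1, h2, fun i => by have := h3 i; omega, h3⟩
    · rintro ⟨h1, h2, -, h4⟩; exact ⟨h1, h2, h4⟩
  rw [h, ncard_even _ (by norm_num)]
  decide +kernel

theorem ncard48_four :
    {x : V | x ∈ leechLattice ∧ sqNorm x = 48 ∧ ∃ i, |x i| = 4}.ncard = 3108864 := by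
  have h : {x : V | x ∈ leechLattice ∧ sqNorm x = 48 ∧ ∃ i, |x i| = 4} =
      {x : V | IsLeech x ∧ sqNorm x = (48 : ℕ) ∧ (∀ i, x i % 2 = 0) ∧
          ∀ i, (fun _ => true) (x i) = true} \
        {x : V | IsLeech x ∧ sqNorm x = (48 : ℕ) ∧ (∀ i, x i % 2 = 0) ∧
          ∀ i, valSmall (x i) = true} := by
    ext x
    simp only [Set.mem_setOf_eq, mem_leechLattice_iff, valSmall, decide_eq_true_eq,
      Set.mem_sdiff, Nat.cast_ofNat]
    constructor
    · rintro ⟨h1, h2, i, hi⟩
      rcases abs_choice (x i) with e | e <;> rw [e] at hi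
      all_goals
        refine ⟨⟨h1, h2, (parity_all h1).resolve_right fun h => by have := h i; omega,
          fun _ => trivial⟩, fun h' => ?_⟩
        have := h'.2.2.2 i
        omega
    · rintro ⟨⟨h1, h2, h3, -⟩, h4⟩
      refine ⟨h1, h2, ?_⟩
      by_contra hno
      push Not at hno
      refine h4 ⟨h1, h2, h3, fun i => ?_⟩
      rcases even_values48 h1 h2 h3 i with h | h | h | h | h
      · exact Or.inl h
      · exact Or.inr (Or.inl h)
      · exact Or.inr (Or.inr h)
      · exact absurd (by rw [h]; rfl) (hno i)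
      · exact absurd (by rw [h]; rfl) (hno i)
  have hfin : {x : V | IsLeech x ∧ sqNorm x = (48 : ℕ) ∧ (∀ i, x i % 2 = 0) ∧
      ∀ i, valSmall (x i) = true}.Finite :=
    (Set.Finite.pi fun _ : GolayPt => Set.finite_Icc (-8 : ℤ) 8).subset
      fun x hx i _ => abs_le_eight (by norm_num) hx.2.1 i
  rw [h, Set.ncard_sdiff ?_ hfin]
  · rw [ncard_even (fun _ => true) (N := 48) (by norm_num),
      ncard_even valSmall (N := 48) (by norm_num)]
    decide +kernel
  · exact fun x hx => ⟨hx.1, hx.2.1, hx.2.2.1, fun _ => rfl⟩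

theorem ncard48_five :
    {x : V | x ∈ leechLattice ∧ sqNorm x = 48 ∧ ∃ i, |x i| = 5}.ncard = 98304 := by
  have h : {x : V | x ∈ leechLattice ∧ sqNorm x = 48 ∧ ∃ i, |x i| = 5} =
      {x : V | IsLeech x ∧ sqNorm x = (48 : ℕ) ∧ (∀ i, x i % 2 = 1) ∧
        ∀ i, valFive (x i) = true} := by
    ext x
    simp only [Set.mem_setOf_eq, mem_leechLattice_iff, valFive, decide_eq_true_eq, Nat.cast_ofNat]
    constructor
    · rintro ⟨h1, h2, p, hp⟩
      have hp' : x p = 5 ∨ x p = -5 := by
        rcases abs_choice (x p) with e | e <;> rw [e] at hp <;> omega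
      have ho := (parity_all h1).resolve_left fun h => by have := h p; omega
      refine ⟨h1, h2, ho, fun i => ?_⟩
      by_cases hi : p = i
      · subst hi; omega
      · have := no_five_three h2 ho hi (by rcases hp' with e | e <;> rw [e] <;> norm_num)
        omega
    · rintro ⟨h1, h2, h3, h4⟩
      refine ⟨h1, h2, ?_⟩
      by_contra hno
      push Not at hno
      have hsq : sqNorm x = ∑ _i : GolayPt, 1 := sum_congr rfl fun i _ => by
        rcases h4 i with e | e | e | e
        · rw [e]; rfl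
        · rw [e]; rfl
        · exact absurd (by rw [e]; rfl) (hno i)
        · exact absurd (by rw [e]; rfl) (hno i)
      simp at hsq
      omega
  rw [h, ncard_odd valFive (fun v => by simp only [valFive, decide_eq_decide]; omega) (by norm_num)]
  decide +kernel

theorem ncard48_three :
    {x : V | x ∈ leechLattice ∧ sqNorm x = 48 ∧ ∃ i j k, i ≠ j ∧ j ≠ k ∧ i ≠ k ∧
      |x i| = 3 ∧ |x j| = 3 ∧ |x k| = 3}.ncard = 8290304 := by
  have h : {x : V | x ∈ leechLattice ∧ sqNorm x = 48 ∧ ∃ i j k, i ≠ j ∧ j ≠ k ∧ i ≠ k ∧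
      |x i| = 3 ∧ |x j| = 3 ∧ |x k| = 3} =
      {x : V | IsLeech x ∧ sqNorm x = (48 : ℕ) ∧ (∀ i, x i % 2 = 1) ∧
        ∀ i, valThree (x i) = true} := by
    ext x
    simp only [Set.mem_setOf_eq, mem_leechLattice_iff, valThree, decide_eq_true_eq, Nat.cast_ofNat]
    constructor
    · rintro ⟨h1, h2, i, j, k, -, -, -, hi, -, -⟩
      have hi' : x i = 3 ∨ x i = -3 := by
        rcases abs_choice (x i) with e | e <;> rw [e] at hi <;> omega
      have ho := (parity_all h1).resolve_left fun h => by have := h i; omega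
      refine ⟨h1, h2, ho, fun l => ?_⟩
      have := sq_add_23_le ho l
      have hb : -6 < x l ∧ x l < 6 := by constructor <;> nlinarith
      have := ho l
      by_contra hno
      have h5 : x l = 5 ∨ x l = -5 := by omega
      have hli : l ≠ i := fun e => by subst e; omega
      have := no_five_three h2 ho hli (by rcases h5 with e | e <;> rw [e] <;> norm_num)
      omega
    · rintro ⟨h1, h2, -, h4⟩
      refine ⟨h1, h2, ?_⟩
      have h3 := card_three h4
      rw [h2] at h3
      have hc : (univ.filter fun i => x i = 3 ∨ x i = -3).card = 3 := by omega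
      obtain ⟨i, j, k, hij, hik, hjk, e⟩ := card_eq_three.1 hc
      have hm : ∀ l, l = i ∨ l = j ∨ l = k → |x l| = 3 := fun l hl => by
        have : l ∈ univ.filter fun i => x i = 3 ∨ x i = -3 := by rw [e]; simpa using hl
        rcases (Finset.mem_filter.1 this).2 with h | h <;> rw [h] <;> norm_num
      exact ⟨i, j, k, hij, hjk, hik, hm i (Or.inl rfl), hm j (Or.inr (Or.inl rfl)),
        hm k (Or.inr (Or.inr rfl))⟩
  rw [h, ncard_odd valThree (fun v => by simp only [valThree, decide_eq_decide]; omega)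
    (by norm_num)]
  decide +kernel

end Cfsg.Agent.H14
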