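import Cfsg.Agent.H14.FrameCode
import Cfsg.Agent.S0375

/-! An even rootless lattice of rank 24 with the theta coefficients of the Leech lattice is the Leech
lattice. -/

set_option autoImplicit false

namespace Cfsg.Agent.H14.Unique

open Finset Matrix

variable {B : Matrix (Fin 24) (Fin 24) ℤ}

theorem img_odd_or_even (G : Good B) (F : Frame B) {v : V} (hv : v ∈ img F) :
    (∀ i, v i % 2 = 1) ∨ ∃ a : V, v = (2 : ℤ) • a := by
  by_cases h : ∃ i, v i % 2 = 1
  · obtain ⟨i, hi⟩ := h
    exact Or.inl fun j => by have := img_parity G F hv i j; omega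
  · push Not at h
    refine Or.inr ⟨fun i => v i / 2, funext fun i => ?_⟩
    have := h i
    show v i = (2 : ℤ) * (v i / 2)
    omega

theorem minimal_ncard (G : Good B) (F : Frame B) :
    {v : V | v ∈ img F ∧ sqNorm v = 32}.ncard = 196560 := by
  rw [show {v : V | v ∈ img F ∧ sqNorm v = 32} =
      coord F '' {x : Lam | x ⬝ᵥ (B *ᵥ x) = 4} from ?_,
    Set.ncard_image_of_injective _ (coord_injective G F), G.c4]
  ext v
  constructor
  · rintro ⟨⟨x, rfl⟩, hn⟩
    rw [sqNorm_coord G F] at hn
    exact ⟨x, by show ip B x x = 4; omega, rfl⟩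
  · rintro ⟨x, hx, rfl⟩
    refine ⟨⟨x, rfl⟩, ?_⟩
    rw [sqNorm_coord G F, show ip B x x = 4 from hx]; norm_num

/-- The minimal vectors of the image. -/
noncomputable def minImg (G : Good B) (F : Frame B) : Finset V :=
  (finite_of_ncard (minimal_ncard G F) (by norm_num)).toFinset

theorem mem_minImg {G : Good B} {F : Frame B} {v : V} :
    v ∈ minImg G F ↔ v ∈ img F ∧ sqNorm v = 32 := by
  simp [minImg]

theorem card_minImg (G : Good B) (F : Frame B) : (minImg G F).card = 196560 :=
  (Set.ncard_eq_toFinset_card _ (finite_of_ncard (minimal_ncard G F) (by norm_num))).symm.trans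
    (minimal_ncard G F)

theorem odd_sq_cases (z : ℤ) (h : z % 2 = 1) (h9 : z ^ 2 ≤ 9) : z = 1 ∨ z = -1 ∨ z = 3 ∨ z = -3 := by
  have h1 : -3 ≤ z := by nlinarith
  have h2 : z ≤ 3 := by nlinarith
  omega

theorem odd_sq_ge (z : ℤ) (h : z % 2 = 1) : 1 ≤ z ^ 2 ∧ (z ^ 2 ≠ 1 → 9 ≤ z ^ 2) := by
  rcases lt_or_ge z (-2) with h1 | h1
  · exact ⟨by nlinarith, fun _ => by nlinarith⟩
  rcases lt_or_ge 2 z with h2 | h2
  · exact ⟨by nlinarith, fun _ => by nlinarith⟩
  have : z = 1 ∨ z = -1 := by omega
  rcases this with rfl | rfl <;> norm_num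

/-- An odd minimal vector has a single coordinate of absolute value 3. -/
theorem odd_shape {v : V} (ho : ∀ i, v i % 2 = 1) (hn : sqNorm v = 32) :
    ∃ p, (v p = 3 ∨ v p = -3) ∧ ∀ i, i ≠ p → v i = 1 ∨ v i = -1 := by
  have hs : ∑ i, (v i ^ 2 - 1) = 8 := by
    rw [sum_sub_distrib, show ∑ i, v i ^ 2 = sqNorm v from rfl, hn]; simp
  have h0 : ∀ i, 0 ≤ v i ^ 2 - 1 := fun i => by have := (odd_sq_ge _ (ho i)).1; omega
  obtain ⟨p, hp⟩ : ∃ p, v p ^ 2 ≠ 1 := by
    by_contra h
    push Not at h
    simp [h] at hs
  have hp9 := (odd_sq_ge _ (ho p)).2 hp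
  have hp' : v p ^ 2 ≤ 9 := by
    have := single_le_sum (fun i _ => h0 i) (mem_univ p)
    omega
  refine ⟨p, ?_, fun i hi => ?_⟩
  · rcases odd_sq_cases _ (ho p) hp' with h | h | h | h
    · rw [h] at hp9; norm_num at hp9
    · rw [h] at hp9; norm_num at hp9
    · exact Or.inl h
    · exact Or.inr h
  · have h2 := sum_le_sum_of_subset_of_nonneg (subset_univ {p, i}) (fun j _ _ => h0 j)
    rw [sum_pair (Ne.symm hi), hs] at h2
    have h1 := h0 i
    rcases odd_sq_cases _ (ho i) (by omega) with h | h | h | h
    · exact Or.inl h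
    · exact Or.inr h
    · rw [h] at h2; omega
    · rw [h] at h2; omega

open Classical in
/-- The parity word of the halved vector shifted by one. -/
noncomputable def oddWord (v : V) : GolayPt → ZMod 2 := par fun i => (v i - 1) / 2

open Classical in
theorem card_odd_le (G : Good B) (F : Frame B) :
    ((minImg G F).filter fun v => ∀ i, v i % 2 = 1).card ≤ 24 * Nat.card (code F) := by
  set O := (minImg G F).filter fun v => ∀ i, v i % 2 = 1 with hO
  rcases O.eq_empty_or_nonempty with h | ⟨w, hw⟩
  · simp [h]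
  rw [hO, Finset.mem_filter, mem_minImg] at hw
  have hsel : ∀ v : V, ∃ p : GolayPt, v ∈ O → (v p = 3 ∨ v p = -3) ∧
      ∀ i, i ≠ p → v i = 1 ∨ v i = -1 := fun v => by
    by_cases h : v ∈ O
    · rw [hO, Finset.mem_filter, mem_minImg] at h
      obtain ⟨p, hp⟩ := odd_shape h.2 h.1.2
      exact ⟨p, fun _ => hp⟩
    · exact ⟨none, fun h' => absurd h' h⟩
  choose pos hpos using hsel
  set C := univ.filter fun c : GolayPt → ZMod 2 => c ∈ code F with hC
  have hcc : C.card = Nat.card (code F) := by
    rw [hC, ← Fintype.card_subtype, Nat.card_eq_fintype_card]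
  have hle : O.card ≤ ((univ : Finset GolayPt) ×ˢ C).card := by
    refine card_le_card_of_injOn (fun v => (pos v, oddWord v + oddWord w)) ?_ ?_
    · intro v hv
      rw [Finset.mem_coe] at hv
      have hv' := hv
      rw [hO, Finset.mem_filter, mem_minImg] at hv'
      simp only [Finset.coe_product, Set.mem_prod, Finset.mem_coe, mem_univ, true_and]
      rw [hC, Finset.mem_filter]
      refine ⟨mem_univ _, (fun i => (v i - w i) / 2), ?_, ?_⟩
      · convert sub_mem hv'.1.1 hw.1.1 using 1
        funext i
        have := hv'.2 i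
        have := hw.2 i
        show (2 : ℤ) * ((v i - w i) / 2) = v i - w i
        omega
      · funext i
        have := hv'.2 i
        have := hw.2 i
        simp only [oddWord, par_apply, Pi.add_apply]
        rw [← Int.cast_add, ZMod.intCast_eq_intCast_iff']
        push_cast
        omega
    · intro u hu v hv e
      rw [Finset.mem_coe] at hu hv
      simp only [Prod.mk.injEq, add_left_inj] at e
      obtain ⟨a1, a2⟩ := hpos u hu
      obtain ⟨b1, b2⟩ := hpos v hv
      rw [e.1] at a1 a2
      funext i
      have h := congrFun e.2 i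
      simp only [oddWord, par_apply, ZMod.intCast_eq_intCast_iff'] at h
      push_cast at h
      by_cases hi : i = pos v
      · subst hi
        rcases a1 with x | x <;> rcases b1 with y | y <;> rw [x, y] at h ⊢ <;> omega
      · rcases a2 i hi with x | x <;> rcases b2 i hi with y | y <;> rw [x, y] at h ⊢ <;> omega
  rw [card_product, hcc, card_univ, show Fintype.card GolayPt = 24 by decide] at hle
  exact hle

open Classical in
theorem card_zero_word_le (G : Good B) (F : Frame B) :
    ((minImg G F).filter fun v => ∀ i, v i % 4 = 0).card ≤ 1104 := by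
  have hb : ∀ v ∈ (minImg G F).filter (fun v => ∀ i, v i % 4 = 0),
      (∀ i, v i = 0 ∨ v i = 4 ∨ v i = -4) ∧ (univ.filter fun i => v i ≠ 0).card = 2 := by
    intro v hv
    rw [Finset.mem_filter, mem_minImg] at hv
    have hval : ∀ i, v i = 0 ∨ v i = 4 ∨ v i = -4 := fun i => by
      have h1 : v i ^ 2 ≤ 32 := hv.1.2 ▸ single_le_sum (fun j _ => sq_nonneg (v j)) (mem_univ i)
      have h2 : -5 ≤ v i := by nlinarith
      have h3 : v i ≤ 5 := by nlinarith
      have := hv.2 i
      omega
    refine ⟨hval, ?_⟩
    have hs : sqNorm v = 16 * ((univ.filter fun i => v i ≠ 0).card : ℤ) := by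
      rw [Finset.card_filter, Nat.cast_sum, mul_sum]
      exact sum_congr rfl fun i _ => by rcases hval i with h | h | h <;> simp [h]
    rw [hv.1.2] at hs
    omega
  refine le_trans (card_le_card_of_injOn
    (t := ((univ : Finset GolayPt).powersetCard 2).sigma fun s => s.powerset)
    (fun v => ⟨univ.filter fun i => v i ≠ 0, univ.filter fun i => v i = 4⟩) ?_ ?_) ?_
  · intro v hv
    simp only [Finset.coe_sigma, Set.mem_sigma_iff, Finset.mem_coe, mem_powersetCard,
      Finset.mem_powerset]
    refine ⟨⟨subset_univ _, (hb v hv).2⟩, fun i hi => ?_⟩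
    rw [Finset.mem_filter] at hi ⊢
    exact ⟨hi.1, by rw [hi.2]; norm_num⟩
  · intro u hu v hv e
    rw [Sigma.mk.injEq, heq_eq_eq] at e
    funext i
    have h1 := Finset.ext_iff.1 e.1 i
    have h2 := Finset.ext_iff.1 e.2 i
    simp only [Finset.mem_filter, mem_univ, true_and] at h1 h2
    rcases (hb u hu).1 i with x | x | x <;> rcases (hb v hv).1 i with y | y | y <;>
      simp [x, y] at h1 h2 ⊢
  · rw [card_sigma, sum_const_nat (m := 4) fun s hs => by
      rw [card_powerset, (mem_powersetCard.1 hs).2]; rfl,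
      card_powersetCard, card_univ, show Fintype.card GolayPt = 24 by decide]
    decide

open Classical in
theorem card_two_word_le (G : Good B) (F : Frame B) :
    ((minImg G F).filter fun v => (∀ i, v i % 2 = 0) ∧ ¬ ∀ i, v i % 4 = 0).card ≤ 128 * 759 := by
  set E := (minImg G F).filter fun v => (∀ i, v i % 2 = 0) ∧ ¬ ∀ i, v i % 4 = 0 with hE
  let wd : V → GolayPt → ZMod 2 := fun v => par fun i => v i / 2
  set W := univ.filter fun c : GolayPt → ZMod 2 => c ∈ code F ∧ hammingNorm c = 8
  have hW : W.card ≤ 759 := card_eight_le G F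
  have key : ∀ v ∈ E, wd v ∈ W ∧ ∀ i, v i = if wd v i = 0 then 0 else
      if v i = 2 then 2 else -2 := by
    intro v hv
    rw [hE, Finset.mem_filter, mem_minImg] at hv
    obtain ⟨⟨hvm, hn⟩, he, hne⟩ := hv
    have hv2 : v = (2 : ℤ) • fun i => v i / 2 := funext fun i => by
      have := he i
      show v i = 2 * (v i / 2)
      omega
    have hc : wd v ∈ code F := ⟨_, hv2 ▸ hvm, rfl⟩
    have hc0 : wd v ≠ 0 := fun e => hne fun i => by
      have := congrFun e i
      simp only [wd, par_apply, Pi.zero_apply, ZMod.intCast_zmod_eq_zero_iff_dvd] at this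
      have := he i
      omega
    have h8 := code_min G F hc hc0
    have hsum : ∑ i, (v i / 2) ^ 2 = 8 := by
      have : sqNorm v = 4 * ∑ i, (v i / 2) ^ 2 := by
        rw [mul_sum]
        exact sum_congr rfl fun i _ => by
          conv_lhs => rw [show v i = 2 * (v i / 2) from congrFun hv2 i]
          ring
      omega
    have hterm : ∀ i, (if (v i / 2) % 2 = 1 then (1 : ℤ) else 0) ≤ (v i / 2) ^ 2 := fun i => by
      split
      · exact (odd_sq_ge _ ‹_›).1
      · positivity
    have hw : (hammingNorm (wd v) : ℤ) = ∑ i, if (v i / 2) % 2 = 1 then (1 : ℤ) else 0 := by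
      rw [hammingNorm_par, Finset.card_filter, Nat.cast_sum]
      exact sum_congr rfl fun i _ => by split <;> simp
    have hle := sum_le_sum (s := univ) fun i _ => hterm i
    have heq : ∀ i, (if (v i / 2) % 2 = 1 then (1 : ℤ) else 0) = (v i / 2) ^ 2 := fun i =>
      (sum_eq_sum_iff_of_le fun i _ => hterm i).1 (by omega) i (mem_univ i)
    refine ⟨Finset.mem_filter.2 ⟨mem_univ _, hc, by omega⟩, fun i => ?_⟩
    have h := heq i
    have := he i
    by_cases ho : (v i / 2) % 2 = 1
    · rw [if_pos ho] at h
      rw [if_neg (by simp [wd, ZMod.intCast_zmod_eq_zero_iff_dvd]; omega)]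
      rcases sq_eq_one_iff.1 h.symm with e | e <;> split <;> omega
    · rw [if_neg ho] at h
      rw [if_pos (by simp [wd, ZMod.intCast_zmod_eq_zero_iff_dvd]; omega)]
      have := pow_eq_zero_iff (n := 2) (by norm_num) |>.1 h.symm
      omega
  have hfib : ∀ c ∈ E.image wd, (E.filter fun v => wd v = c).card ≤ 128 := by
    intro c hc
    obtain ⟨v0, hv0, rfl⟩ := Finset.mem_image.1 hc
    have h8 : hammingNorm (wd v0) = 8 := (Finset.mem_filter.1 (key v0 hv0).1).2.2
    set T := univ.filter fun i => wd v0 i ≠ 0 with hT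
    have hTc : T.card = 8 := h8
    obtain ⟨q, hq⟩ := card_pos.1 (by omega : 0 < T.card)
    refine le_trans (card_le_card_of_injOn (t := (T.erase q).powerset)
      (fun v => (T.erase q).filter fun i => v i = 2) ?_ ?_) ?_
    · intro v _
      exact Finset.mem_powerset.2 (filter_subset _ _)
    · intro u hu v hv e
      rw [Finset.mem_coe, Finset.mem_filter] at hu hv
      have hsame : ∀ i, i ≠ q → u i = v i := by
        intro i hi
        rw [(key u hu.1).2 i, (key v hv.1).2 i, hu.2, hv.2]
        by_cases h0 : wd v0 i = 0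
        · rw [if_pos h0, if_pos h0]
        · have hiT : i ∈ T.erase q :=
            mem_erase.2 ⟨hi, Finset.mem_filter.2 ⟨mem_univ _, h0⟩⟩
          have h := Finset.ext_iff.1 e i
          simp only [Finset.mem_filter, hiT, true_and] at h
          simp only [if_neg h0, h]
      funext i
      by_cases hi : i = q
      · subst hi
        by_contra hne
        have hu' := (mem_minImg.1 (Finset.mem_filter.1 hu.1).1).1
        have hv' := (mem_minImg.1 (Finset.mem_filter.1 hv.1).1).1
        have hval : ∀ w ∈ E, wd w = wd v0 → w i = 2 ∨ w i = -2 := fun w hw hwd => by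
          rw [(key w hw).2 i, hwd, if_neg (Finset.mem_filter.1 hq).2]
          split <;> simp
        have hd : u - v = (4 : ℤ) • (Pi.single i ((u i - v i) / 4) : V) := funext fun j => by
          by_cases hj : j = i
          · subst hj
            simp only [Pi.sub_apply, Pi.smul_apply, Pi.single_eq_same, smul_eq_mul]
            rcases hval u hu.1 hu.2 with x | x <;> rcases hval v hv.1 hv.2 with y | y <;>
              rw [x, y] <;> norm_num
          · simp [hj, hsame j hj]
        refine four_not_mem G F _ ?_ (hd ▸ sub_mem hu' hv')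
        rw [Finset.sum_pi_single', if_pos (mem_univ i)]
        rcases hval u hu.1 hu.2 with x | x <;> rcases hval v hv.1 hv.2 with y | y <;>
          rw [x, y] at hne ⊢ <;> revert hne <;> decide
      · exact hsame i hi
    · rw [card_powerset, card_erase_of_mem hq, hTc]; norm_num
  refine (card_le_mul_card_image E 128 hfib).trans (Nat.mul_le_mul_left 128 ?_)
  exact (card_le_card (image_subset_iff.2 fun v hv => (key v hv).1)).trans hW

theorem code_finrank (G : Good B) (F : Frame B) :
    Module.finrank (ZMod 2) (code F) = 12 ∧ ∃ v ∈ img F, ∀ i, v i % 2 = 1 := by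
  classical
  have h0 := card_zero_word_le G F
  have h2 := card_two_word_le G F
  have h1 := card_odd_le G F
  have hsub : minImg G F ⊆ ((minImg G F).filter fun v => ∀ i, v i % 2 = 1) ∪
      ((minImg G F).filter fun v => ∀ i, v i % 4 = 0) ∪
      ((minImg G F).filter fun v => (∀ i, v i % 2 = 0) ∧ ¬ ∀ i, v i % 4 = 0) := by
    intro v hv
    simp only [Finset.mem_union, Finset.mem_filter, hv, true_and]
    rcases img_odd_or_even G F (mem_minImg.1 hv).1 with h | ⟨a, ha⟩
    · exact Or.inl (Or.inl h)
    · have he : ∀ i, v i % 2 = 0 := fun i => by rw [ha]; simp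
      by_cases h4 : ∀ i, v i % 4 = 0
      · exact Or.inl (Or.inr h4)
      · exact Or.inr ⟨he, h4⟩
  have htot := (card_le_card hsub).trans ((card_union_le _ _).trans
    (Nat.add_le_add_right (card_union_le _ _) _))
  rw [card_minImg] at htot
  refine ⟨?_, ?_⟩
  · have hle := code_finrank_le G F
    rw [card_code] at h1
    generalize Module.finrank (ZMod 2) (code F) = d at h1 hle ⊢
    by_contra hne
    have : 2 ^ d ≤ 2 ^ 11 := Nat.pow_le_pow_right (by norm_num) (by omega)
    omega
  · obtain ⟨v, hv⟩ : ((minImg G F).filter fun v => ∀ i, v i % 2 = 1).Nonempty :=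
      card_pos.1 (by omega)
    rw [Finset.mem_filter] at hv
    exact ⟨v, (mem_minImg.1 hv.1).1, hv.2⟩

/-- Relabelling a frame. -/
def Frame.reindex (F : Frame B) (σ : GolayPt ≃ GolayPt) : Frame B where
  vec p := F.vec (σ p)
  norm p := F.norm _
  orth p q h := F.orth _ _ (σ.injective.ne h)
  congr p q := F.congr _ _

theorem coord_reindex (F : Frame B) (σ : GolayPt ≃ GolayPt) (x : Lam) :
    coord (F.reindex σ) x = fun p => coord F x (σ p) := rfl

theorem mem_code_reindex (F : Frame B) (σ : GolayPt ≃ GolayPt) (c : GolayPt → ZMod 2) :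
    c ∈ code (F.reindex σ) ↔ (fun p => c (σ.symm p)) ∈ code F := by
  constructor
  · rintro ⟨a, ⟨x, hx⟩, rfl⟩
    refine ⟨fun p => a (σ.symm p), ⟨x, funext fun p => ?_⟩, rfl⟩
    have := congrFun hx (σ.symm p)
    simpa [coord_reindex] using this
  · rintro ⟨a, ⟨x, hx⟩, hp⟩
    refine ⟨fun p => a (σ p), ⟨x, funext fun p => ?_⟩, funext fun p => ?_⟩
    · have := congrFun hx (σ p)
      simpa [coord_reindex] using this
    · have := congrFun hp (σ p)
      simpa using this

theorem exists_golay_frame (G : Good B) : ∃ F : Frame B, code F = golayCode := by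
  obtain ⟨F⟩ := exists_frame G
  let φ : Fin 24 ≃ GolayPt := Fintype.equivOfCardEq (by decide)
  let L : (GolayPt → ZMod 2) ≃ₗ[ZMod 2] (Fin 24 → ZMod 2) :=
    LinearEquiv.funCongrLeft (ZMod 2) (ZMod 2) φ
  let C := (code F).map (L : (GolayPt → ZMod 2) →ₗ[ZMod 2] (Fin 24 → ZMod 2))
  have hL : ∀ w i, L w i = w (φ i) := fun w i => rfl
  have hdim : Module.finrank (ZMod 2) C = 12 :=
    (LinearEquiv.finrank_map_eq L (code F)).trans (code_finrank G F).1
  have hnorm : ∀ w : GolayPt → ZMod 2, hammingNorm (L w) = hammingNorm w := fun w => by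
    unfold hammingNorm
    refine card_bij' (fun i _ => φ i) (fun p _ => φ.symm p) ?_ ?_ ?_ ?_ <;> intros <;>
      simp_all [hL]
  have horth : ∀ v ∈ C, ∀ w ∈ C, ∑ i, v i * w i = 0 := by
    rintro _ ⟨v, hv, rfl⟩ _ ⟨w, hw, rfl⟩
    exact (Equiv.sum_comp φ fun p => v p * w p).trans (code_orth G F hv hw)
  obtain ⟨e, he⟩ := S0375.result C hdim horth
    (by rintro _ ⟨v, hv, rfl⟩; rw [LinearEquiv.coe_coe, hnorm]; exact code_four_dvd G F hv)
    (by rintro _ ⟨v, hv, rfl⟩; rw [LinearEquiv.coe_coe, hnorm]; exact code_no_four G F hv)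
  refine ⟨F.reindex (e.symm.trans φ), Submodule.ext fun c => ?_⟩
  rw [mem_code_reindex, he c]
  constructor
  · intro h
    refine ⟨_, h, funext fun i => ?_⟩
    rw [LinearEquiv.coe_coe, hL]
    simp
  · rintro ⟨v, hv, hv'⟩
    have e' : (fun p => c ((e.symm.trans φ).symm p)) = v := by
      funext p
      have := congrFun hv' (φ.symm p)
      rw [LinearEquiv.coe_coe, hL, Equiv.apply_symm_apply] at this
      simpa using this.symm
    rw [e']; exact hv

/-- Changing the signs of a frame. -/
def Frame.signs (F : Frame B) (d : GolayPt → ZMod 2) : Frame B where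
  vec p := if d p = 0 then F.vec p else -F.vec p
  norm p := by split <;> simp [ip_neg_left, ip_neg_right, F.norm]
  orth p q h := by split <;> split <;> simp [ip_neg_left, ip_neg_right, F.orth p q h]
  congr p q := by
    have hneg : ∀ x : Lam, red (-x) = red x := fun x => funext fun i => by
      simp [red, ZMod.neg_eq_self_mod_two]
    split <;> split <;> simp [hneg, F.congr p q]

theorem coord_signs (F : Frame B) (d : GolayPt → ZMod 2) (x : Lam) (p : GolayPt) :
    coord (F.signs d) x p = if d p = 0 then coord F x p else -coord F x p := by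
  show ip B x (if d p = 0 then F.vec p else -F.vec p) = _
  split <;> simp [coord_apply, ip_neg_right]

theorem golayCode_dim : Module.finrank (ZMod 2) golayCode = 12 := H9.golayCode_finrank

/-- Frames can be signed so that the halved even vectors have sums divisible by 4. -/
theorem exists_signed_frame (G : Good B) :
    ∃ F : Frame B, code F = golayCode ∧ ∀ a : V, (2 : ℤ) • a ∈ img F → 4 ∣ ∑ i, a i := by
  obtain ⟨F, hF⟩ := exists_golay_frame G
  have hev : ∀ a : V, (2 : ℤ) • a ∈ img F → (2 : ℤ) ∣ ∑ i, a i := fun a ha => by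
    have h1 := code_four_dvd G F ⟨a, ha, rfl⟩
    have h2 := sum_mod_two a
    omega
  have hdiff : ∀ a b : V, (2 : ℤ) • a ∈ img F → (2 : ℤ) • b ∈ img F → par a = par b →
      4 ∣ (∑ i, a i) - ∑ i, b i := by
    intro a b ha hb e
    have hd : ∀ i, 2 ∣ a i - b i := fun i => by
      have := congrFun e i
      simp only [par_apply, ZMod.intCast_eq_intCast_iff'] at this
      push_cast at this
      omega
    choose k hk using hd
    have hs : (∑ i, a i) - ∑ i, b i = 2 * ∑ i, k i := by
      rw [mul_sum, ← sum_sub_distrib]; exact sum_congr rfl fun i _ => hk i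
    have hk4 : (4 : ℤ) • k ∈ img F := by
      convert sub_mem ha hb using 1
      funext i
      simp
      linarith [hk i]
    by_cases h : 2 ∣ ∑ i, k i
    · omega
    · exact absurd hk4 (four_not_mem G F k h)
  choose lift hlift hpar using fun c : code F => c.2
  let ε : code F →+ ZMod 2 := AddMonoidHom.mk' (fun c => (((∑ i, lift c i) / 2 : ℤ) : ZMod 2))
    (fun c d => by
      have h := hdiff (lift (c + d)) (lift c + lift d) (hlift _)
        (by rw [smul_add]; exact add_mem (hlift c) (hlift d))
        (by rw [hpar, par_add, hpar, hpar]; rfl)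
      have h1 := hev _ (hlift c)
      have h2 := hev _ (hlift d)
      have h3 := hev _ (hlift (c + d))
      simp only [Pi.add_apply, sum_add_distrib] at h
      rw [← Int.cast_add, ZMod.intCast_eq_intCast_iff']
      push_cast
      omega)
  obtain ⟨d, hd⟩ := pairing_surjective (code F) (ε.toZModLinearMap 2)
  have hcode : ∀ a : V, (2 : ℤ) • a ∈ img (F.signs d) ↔
      (2 : ℤ) • (fun i => if d i = 0 then a i else -a i) ∈ img F := by
    intro a
    constructor
    · rintro ⟨x, hx⟩
      refine ⟨x, funext fun i => ?_⟩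
      have := congrFun hx i
      rw [coord_signs] at this
      by_cases h : d i = 0 <;> simp [h] at this ⊢ <;> omega
    · rintro ⟨x, hx⟩
      refine ⟨x, funext fun i => ?_⟩
      have := congrFun hx i
      rw [coord_signs]
      by_cases h : d i = 0 <;> simp [h] at this ⊢ <;> omega
  refine ⟨F.signs d, ?_, ?_⟩
  · refine le_antisymm ?_ ?_
    · rintro _ ⟨a, ha, rfl⟩
      rw [← hF]
      refine ⟨_, (hcode a).1 ha, funext fun i => ?_⟩
      by_cases h : d i = 0 <;> simp [h, ZMod.neg_eq_self_mod_two]
    · intro c hc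
      rw [← hF] at hc
      obtain ⟨a, ha, rfl⟩ := hc
      refine ⟨fun i => if d i = 0 then a i else -a i, (hcode _).2 ?_, funext fun i => ?_⟩
      · convert ha using 2
        funext i
        by_cases h : d i = 0 <;> simp [h]
      · by_cases h : d i = 0 <;> simp [h, ZMod.neg_eq_self_mod_two]
  · intro a ha
    set b : V := fun i => if d i = 0 then a i else -a i with hb
    have hbm := (hcode a).1 ha
    let c : code F := ⟨par b, b, hbm, rfl⟩
    have h := congrArg (fun φ => φ c) hd
    have hsum : (((∑ i, lift c i) / 2 : ℤ) : ZMod 2) = ∑ i, d i * par b i := h.symm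
    have hdot : ∑ i, d i * par b i = ((∑ i, (if d i = 0 then 0 else b i) : ℤ) : ZMod 2) := by
      rw [Int.cast_sum]
      refine sum_congr rfl fun i _ => ?_
      rcases zmod_two_cases (d i) with e | e <;> simp [e]
    rw [hdot, ZMod.intCast_eq_intCast_iff'] at hsum
    push_cast at hsum
    have hab : ∑ i, a i = (∑ i, b i) - 2 * ∑ i, (if d i = 0 then 0 else b i) := by
      rw [mul_sum, ← sum_sub_distrib]
      refine sum_congr rfl fun i _ => ?_
      by_cases e : d i = 0 <;> simp [hb, e]
      ring
    have h4 := hdiff (lift c) b (hlift c) hbm (hpar c)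
    have h5 := hev _ (hlift c)
    omega

/-- Vectors of the image lie in the Leech lattice. -/
theorem img_le_leech (G : Good B) (F : Frame B) (hF : code F = golayCode)
    (hsum : ∀ a : V, (2 : ℤ) • a ∈ img F → 4 ∣ ∑ i, a i) {v : V} (hv : v ∈ img F) : IsLeech v := by
  rcases img_odd_or_even G F hv with ho | ⟨a, rfl⟩
  · let a : V := fun i => (v i - 1) / 2
    have hva : ∀ i, v i = 1 + 2 * a i := fun i => by
      have := ho i
      show v i = 1 + 2 * ((v i - 1) / 2)
      omega
    have hu : par a ∈ code F := by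
      refine mem_of_orth (by rw [hF]; exact golayCode_dim) (fun x hx y hy => code_orth G F hx hy) ?_
      rintro _ ⟨b, hb, rfl⟩
      have h1 := img_dot G F hv hb
      have e : dotInt v ((2 : ℤ) • b) = 2 * (∑ i, b i) + 4 * ∑ i, a i * b i := by
        rw [mul_sum, mul_sum, ← sum_add_distrib]
        exact sum_congr rfl fun i _ => by simp [hva i]; ring
      rw [e] at h1
      have h2 := hsum b hb
      calc ∑ i, par a i * par b i = ((∑ i, a i * b i : ℤ) : ZMod 2) := by push_cast; rfl
        _ = 0 := (ZMod.intCast_zmod_eq_zero_iff_dvd _ 2).2 (by push_cast; omega)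
    rw [hF] at hu
    refine ⟨1, a, hva, hu, ?_⟩
    have h16 := img_sq G F hv
    have e : sqNorm v = 24 + 4 * (∑ i, a i) + 4 * ∑ i, a i ^ 2 := by
      rw [mul_sum, mul_sum, show (24 : ℤ) = ∑ _i : GolayPt, (1 : ℤ) by simp, ← sum_add_distrib,
        ← sum_add_distrib]
      exact sum_congr rfl fun i _ => by rw [hva i]; ring
    have e2 : ∑ i, v i = 24 + 2 * ∑ i, a i := by
      rw [mul_sum, show (24 : ℤ) = ∑ _i : GolayPt, (1 : ℤ) by simp, ← sum_add_distrib]
      exact sum_congr rfl fun i _ => hva i
    have h4 := four_dvd_weight _ hu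
    have h5 := sq_sum_mod a
    omega
  · refine ⟨0, a, fun i => by simp, hF ▸ ⟨a, hv, rfl⟩, ?_⟩
    have := hsum a hv
    simp only [Pi.smul_apply, smul_eq_mul, ← mul_sum]
    omega

theorem leech_le_img (G : Good B) (F : Frame B) (hF : code F = golayCode)
    (hsum : ∀ a : V, (2 : ℤ) • a ∈ img F → 4 ∣ ∑ i, a i) {v : V} (hv : IsLeech v) : v ∈ img F := by
  have heven : ∀ w, IsLeech w → (∀ i, w i % 2 = 0) → w ∈ img F := by
    intro w hw he
    obtain ⟨m, a, hwa, ha, hs⟩ := hw
    have hm : m % 2 = 0 := by have := he none; have := hwa none; omega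
    obtain ⟨n, rfl⟩ : 2 ∣ m := by omega
    let a' : V := fun i => n + a i
    have hw2 : w = (2 : ℤ) • a' := funext fun i => by simp [a', hwa i]; ring
    have hp : par a' ∈ golayCode := by
      rcases zmod_two_cases (n : ZMod 2) with e | e
      · convert ha using 1; funext i; simp [a', e]
      · convert add_mem ha one_mem_golayCode using 1; funext i; simp [a', e, add_comm]
    rw [← hF] at hp
    obtain ⟨b, hb, hpb⟩ := hp
    have hd : ∀ i, 2 ∣ a' i - b i := fun i => by
      have := congrFun hpb i
      simp only [par_apply, ZMod.intCast_eq_intCast_iff'] at this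
      push_cast at this
      omega
    choose k hk using hd
    have e : w = (2 : ℤ) • b + (4 : ℤ) • k := by
      rw [hw2]; funext i; simp; linarith [hk i]
    rw [e]
    refine add_mem hb (four_mem F k ?_)
    have e2 : ∑ i, a' i = (∑ i, b i) + 2 * ∑ i, k i := by
      rw [mul_sum, ← sum_add_distrib]; exact sum_congr rfl fun i _ => by linarith [hk i]
    have e3 : ∑ i, w i = 2 * ∑ i, a' i := by
      rw [mul_sum]; exact sum_congr rfl fun i _ => by rw [hw2]; simp
    have := hsum b hb
    omega
  obtain ⟨w, hw, hwo⟩ := (code_finrank G F).2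
  have hwL := img_le_leech G F hF hsum hw
  by_cases he : ∀ i, v i % 2 = 0
  · exact heven v hv he
  · have hd : ∀ i, (v - w) i % 2 = 0 := fun i => by
      obtain ⟨m, a, hva, -⟩ := hv
      push Not at he
      obtain ⟨j, hj⟩ := he
      have := hva i; have := hva j; have := hwo i
      simp only [Pi.sub_apply]
      omega
    have h := add_mem (heven (v - w) (by rw [sub_eq_add_neg]; exact hv.add hwL.neg) hd) hw
    rwa [sub_add_cancel] at h

/-- Uniqueness of the Leech lattice. -/
theorem exists_iso (G : Good B) :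
    ∃ f : Lam ≃+ leechLattice, ∀ x : Lam,
      sqNorm ((f x : leechLattice) : V) = 8 * (x ⬝ᵥ (B *ᵥ x)) := by
  obtain ⟨F, hF, hsum⟩ := exists_signed_frame G
  let φ : Lam →+ leechLattice :=
    (coord F).codRestrict leechLattice fun x =>
      mem_leechLattice_iff.2 (img_le_leech G F hF hsum ⟨x, rfl⟩)
  have hbij : Function.Bijective φ := by
    refine ⟨fun x y h => coord_injective G F (congrArg Subtype.val h), fun v => ?_⟩
    obtain ⟨x, hx⟩ := leech_le_img G F hF hsum (mem_leechLattice_iff.1 v.2)
    exact ⟨x, Subtype.ext hx⟩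
  exact ⟨AddEquiv.ofBijective φ hbij, fun x => sqNorm_coord G F x⟩

end Cfsg.Agent.H14.Unique
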