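import Cfsg.Agent.H11.M24Transitive
import Cfsg.Agent.H14.FrameCode
import Cfsg.Agent.H9.DistanceEight

/-! The stabiliser of a code word fixes no nonzero class of words modulo the code. -/

set_option autoImplicit false

namespace Cfsg.Agent.H14.Cocode

open Finset Cfsg.Agent.H11 Cfsg.Agent.H12
open scoped Pointwise

/-- The shifted word. -/
def pw (σ : Equiv.Perm GolayPt) (w : GolayPt → ZMod 2) : GolayPt → ZMod 2 := fun p => w (σ.symm p)

/-- A word fixed modulo the code by the stabiliser of a word lies in the code. -/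
def Good (u : GolayPt → ZMod 2) : Prop :=
  ∀ w, (∀ σ ∈ M24, pw σ u = u → pw σ w - w ∈ golayCode) → w ∈ golayCode

/-- A certificate: permutations fixing a mask whose differences span the code. -/
def certB (U : ℕ) (Ps : List ℕ) (D : List (ℕ × ℕ)) (cs : List ℕ) : Bool :=
  Ps.all (fun P => preserves P && imgMask P U == U) &&
    D.all (fun d => decide (d.1 < Ps.length) && decide (d.2 < 12)) &&
    (pivotBasis.map Prod.snd ==
      cs.map (selComb (D.map fun d =>
        imgMask (Ps.getD d.1 0) ((pivotBasis.map Prod.snd).getD d.2 0) ^^^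
          (pivotBasis.map Prod.snd).getD d.2 0)))

theorem pw_word {P : ℕ} (hP : isPerm P = true) (m : ℕ) :
    pw (permOf P) (word m) = word (imgMask P m) := by
  funext p
  have h : p ∈ permOf P • fin m ↔ (permOf P).symm p ∈ fin m := by
    rw [← Finset.inv_smul_mem_iff]; rfl
  rw [smul_fin hP, mem_fin, mem_fin] at h
  simp only [pw, word]
  by_cases hb : (imgMask P m).testBit (idx p) = true
  · rw [if_pos hb, if_pos (h.1 hb)]
  · rw [if_neg hb, if_neg (fun e => hb (h.2 e))]

theorem good_of_cert {U : ℕ} {Ps : List ℕ} {D : List (ℕ × ℕ)} {cs : List ℕ}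
    (h : certB U Ps D cs = true) : Good (word U) := by
  simp only [certB, Bool.and_eq_true, List.all_eq_true, beq_iff_eq, decide_eq_true_eq] at h
  obtain ⟨⟨hP, hD⟩, hspan⟩ := h
  intro w hw
  have horth : ∀ v ∈ golayCode, ∀ c ∈ golayCode, ∑ i, v i * c i = 0 := fun v hv c hc =>
    H9.golayCode_self_orthogonal hv hc
  let S : Submodule (ZMod 2) (GolayPt → ZMod 2) :=
    LinearMap.ker (∑ i, w i • (LinearMap.proj i : (GolayPt → ZMod 2) →ₗ[ZMod 2] ZMod 2))
  have hS : ∀ c, c ∈ S ↔ ∑ i, w i * c i = 0 := fun c => by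
    simp [S, LinearMap.mem_ker, LinearMap.sum_apply]
  have hgen : ∀ d ∈ D, word (imgMask (Ps.getD d.1 0) ((pivotBasis.map Prod.snd).getD d.2 0) ^^^
      (pivotBasis.map Prod.snd).getD d.2 0) ∈ S := by
    intro d hd
    obtain ⟨h1, h2⟩ := hD d hd
    have hlen : d.2 < (pivotBasis.map Prod.snd).length := by simpa [pivotBasis] using h2
    rw [List.getD_eq_getElem _ _ h1, List.getD_eq_getElem _ _ hlen]
    set P := Ps[d.1]
    set b := (pivotBasis.map Prod.snd)[d.2]
    have hb : word b ∈ golayCode := word_pivot_mem (List.getElem_mem hlen)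
    obtain ⟨hp, hU⟩ := hP P (List.getElem_mem h1)
    have hperm : isPerm P = true := by
      simp only [preserves, Bool.and_eq_true] at hp; exact hp.1
    have hM := permOf_mem_M24 hp
    have hfix : pw (permOf P) (word U) = word U := by rw [pw_word hperm, hU]
    have hmem := hw _ hM hfix
    have himg : pw (permOf P) (word b) ∈ golayCode := (H11.mem_M24_iff.1 hM) _ hb
    rw [hS, word_xor, ← pw_word hperm]
    have e := horth _ hmem _ himg
    simp only [pw, Pi.sub_apply, sub_mul, Finset.sum_sub_distrib] at e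
    rw [Equiv.sum_comp (permOf P).symm fun i => w i * word b i, sub_eq_zero] at e
    simp only [Pi.add_apply, pw, mul_add, Finset.sum_add_distrib, ← e]
    exact (by decide : ∀ z : ZMod 2, z + z = 0) _
  have hsel : ∀ (G : List ℕ), (∀ g ∈ G, word g ∈ S) → ∀ c, word (selComb G c) ∈ S := by
    intro G
    induction G with
    | nil => intro _ c; rw [selComb, word_zero]; exact zero_mem _
    | cons g G ih =>
      intro hG c
      rw [selComb, word_xor]
      refine add_mem ?_ (ih (fun x hx => hG x (List.mem_cons_of_mem _ hx)) _)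
      split_ifs
      · exact hG g (List.mem_cons_self ..)
      · rw [word_zero]; exact zero_mem _
  have hpiv : ∀ b ∈ pivotBasis.map Prod.snd, word b ∈ S := by
    intro b hb
    rw [hspan, List.mem_map] at hb
    obtain ⟨c, -, rfl⟩ := hb
    refine hsel _ (fun g hg => ?_) c
    obtain ⟨d, hd, rfl⟩ := List.mem_map.1 hg
    exact hgen d hd
  refine Unique.mem_of_orth H9.golayCode_finrank horth fun c hc => ?_
  obtain ⟨m, hm, rfl⟩ := H11.mem_golayCode_iff.1 hc
  have key : ∀ B : List ℕ, (∀ b ∈ B, word b ∈ S) → ∀ m ∈ spanMasks B, word m ∈ S := by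
    intro B
    induction B with
    | nil => intro _ m hm; simp [spanMasks] at hm; subst hm; rw [word_zero]; exact zero_mem _
    | cons b B ih =>
      intro hB m hm
      simp only [spanMasks, List.mem_append, List.mem_map] at hm
      have hB' := fun c hc => hB c (List.mem_cons_of_mem _ hc)
      rcases hm with hm | ⟨x, hx, rfl⟩
      · exact ih hB' m hm
      · rw [word_xor]; exact add_mem (hB b (List.mem_cons_self ..)) (ih hB' x hx)
  exact (hS _).1 (key _ hpiv m hm)

theorem good_zero : Good (word 0) :=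
  good_of_cert (Ps := [389869828905779887512027880192358726, 426223059328419237991003876119184962])
    (D := [(0, 0), (0, 1), (0, 2), (0, 3), (0, 4), (0, 5), (0, 6), (0, 7), (0, 8), (0, 9), (1, 1),
      (1, 3)])
    (cs := [3321, 709, 3384, 3236, 1288, 3909, 2400, 2488, 985, 2789, 1438, 2104])
    (by decide +kernel)

theorem good_octad : Good (word octad0) :=
  good_of_cert (Ps := [610966441937988971742430497086968192, 718308533520028573932117554987597868])
    (D := [(0, 0), (0, 1), (0, 2), (0, 3), (0, 4), (0, 5), (0, 7), (0, 8), (0, 9), (1, 0), (1, 1),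
      (1, 2)])
    (cs := [663, 1204, 1440, 3648, 18, 2743, 3616, 257, 2871, 3584, 3070, 3840])
    (by decide +kernel)

theorem good_dodecad : Good (word dodecad0) :=
  good_of_cert (Ps := [558830716968054989777522562710347793, 597995971830747368932101853736379876])
    (D := [(0, 0), (0, 1), (0, 2), (0, 3), (0, 4), (0, 5), (0, 6), (0, 7), (0, 8), (0, 9), (1, 0),
      (1, 2)])
    (cs := [3006, 187, 2879, 2959, 3998, 3007, 2619, 2967, 2987, 659, 324, 56])
    (by decide +kernel)

theorem pw_mul (σ τ : Equiv.Perm GolayPt) (w : GolayPt → ZMod 2) :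
    pw (σ * τ) w = pw σ (pw τ w) := rfl

theorem pw_one (w : GolayPt → ZMod 2) : pw 1 w = w := rfl

theorem good_pw {u : GolayPt → ZMod 2} (h : Good u) {τ : Equiv.Perm GolayPt} (hτ : τ ∈ M24) :
    Good (pw τ u) := by
  intro w hw
  have hpw : ∀ σ ∈ M24, ∀ c, c ∈ golayCode → pw σ c ∈ golayCode := fun σ hσ c hc =>
    H11.mem_M24_iff.1 hσ c hc
  have hcancel : ∀ v, pw τ (pw τ⁻¹ v) = v := fun v => by
    rw [← pw_mul, mul_inv_cancel, pw_one]
  have hsub : ∀ (σ : Equiv.Perm GolayPt) (a b : GolayPt → ZMod 2),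
      pw σ (a - b) = pw σ a - pw σ b := fun _ _ _ => rfl
  rw [← hcancel w]
  refine hpw τ hτ _ (h _ fun σ hσ hσu => ?_)
  have hinv : pw τ⁻¹ (pw τ u) = u := by rw [← pw_mul, inv_mul_cancel, pw_one]
  have h1 := hw (τ * σ * τ⁻¹) (mul_mem (mul_mem hτ hσ) (inv_mem hτ))
    (by rw [pw_mul, pw_mul, hinv, hσu])
  have h2 := hpw τ⁻¹ (inv_mem hτ) _ h1
  rw [hsub, ← pw_mul, show τ⁻¹ * (τ * σ * τ⁻¹) = σ * τ⁻¹ by group, pw_mul] at h2
  exact h2

theorem pw_indWord (σ : Equiv.Perm GolayPt) (m : ℕ) :
    support₂ (pw σ (word m)) = σ • fin m := by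
  rw [← support₂_word, H11.smul_support₂]; rfl

theorem pw_add_one (σ : Equiv.Perm GolayPt) (w : GolayPt → ZMod 2) :
    pw σ (w + 1) = pw σ w + 1 := rfl

theorem good_add_one {u : GolayPt → ZMod 2} (h : Good u) : Good (u + 1) := fun w hw =>
  h w fun σ hσ hu => hw σ hσ (by rw [pw_add_one, hu])

/-- Every code word is good. -/
theorem good_code {u : GolayPt → ZMod 2} (hu : u ∈ golayCode) : Good u := by
  have h8 : ∀ v ∈ golayCode, hammingNorm v = 8 → Good v := by
    intro v hv hn
    obtain ⟨g, hg, e⟩ := exists_smul_octad0 (o := support₂ v) ⟨⟨v, hv, rfl⟩, hn⟩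
    rw [← pw_indWord] at e
    exact H11.support₂_injective e ▸ good_pw good_octad hg
  rcases H9.golayCode_weights hu with h | h | h | h | h
  · rw [hammingNorm_eq_zero.1 h, ← word_zero]; exact good_zero
  · exact h8 u hu h
  · obtain ⟨g, hg, e⟩ := exists_smul_dodecad0 (d := support₂ u) ⟨⟨u, hu, rfl⟩, h⟩
    rw [← pw_indWord] at e
    exact H11.support₂_injective e ▸ good_pw good_dodecad hg
  · have h1 : hammingNorm (u + 1) = 8 := by
      have := H9.hammingNorm_add_two_inter u 1
      have h24 : hammingNorm (1 : GolayPt → ZMod 2) = 24 := by simp [hammingNorm]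
      have hi : (support₂ u ∩ support₂ (1 : GolayPt → ZMod 2)).card = 16 := by
        rw [show support₂ (1 : GolayPt → ZMod 2) = univ by simp [support₂], Finset.inter_univ]
        exact h
      omega
    have h2 := good_add_one (h8 _ (add_mem hu H14.one_mem_golayCode) h1)
    have e : u + 1 + 1 = u := funext fun i => by
      show u i + 1 + 1 = u i
      exact (by decide : ∀ z : ZMod 2, z + 1 + 1 = z) _
    rwa [e] at h2
  · have hs : support₂ u = univ := Finset.eq_univ_of_card _ (h.trans (by decide))
    have e : u = 0 + 1 := by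
      funext i
      have := hs ▸ Finset.mem_univ i
      have hi : i ∈ support₂ u := hs ▸ Finset.mem_univ i
      simp only [support₂, Finset.mem_filter, Finset.mem_univ, true_and] at hi
      exact (by decide : ∀ z : ZMod 2, z ≠ 0 → z = 0 + 1) _ hi
    rw [e, ← word_zero]; exact good_add_one good_zero

end Cfsg.Agent.H14.Cocode
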